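-- Team project OPAR (S5989): even-dimensional orthogonal groups and nondegenerate m-spaces of
-- odd dimension isometric to a fixed one.  Interface file (helper70): definitions and package
-- statements.  Packages marked "generic" are stated for ANY nondegenerate quadratic form Q on
-- `ι → F` (so that the minus twin S5991 can reuse them); the others are for `quadFormPlus d F`.
-- Built on helper23's OHYP interface (Inv, Nd, Plus, Perp, fixSp, movSp, ordI, cc, Std).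
import Mathlib
import Cfsg.Prelude.Def_GeometricClasses
import Cfsg.Prelude.Def_Classical
import Cfsg.Agent.Lib.Helper23.OHyp.Defs

set_option autoImplicit false
open scoped MatrixGroups
open Matrix

namespace Cfsg.Agent.Lib.Helper70.OPar

open Cfsg.Agent.Lib.Helper23.OHyp

universe u

section defs

variable {F : Type u} [Field F] {ι : Type} [Fintype ι] [DecidableEq ι]

/-- `W` is a member of the family: a nondegenerate `m`-space isometric to `W₀`. -/
def Mem (Q : (ι → F) → F) (W₀ : Submodule F (ι → F)) (m : ℕ) (W : Submodule F (ι → F)) : Prop :=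
  Module.finrank F ↥W = m ∧ Cfsg.Geo.IsNondegenerateOn (QuadraticMap.polar Q) W ∧
    Cfsg.Geo.AreIsometricFor Q W W₀

/-- Every element of `Ω(Q)` that is not scalar and has scalar `r`-th power fixes a member. -/
def Fix (Q : (ι → F) → F) (W₀ : Submodule F (ι → F)) (m r : ℕ) : Prop :=
  ∀ x : GL ι F, x ∈ Cfsg.Geo.omegaGL Q →
    (∃ z : F, ((x ^ r : GL ι F) : Matrix ι ι F) = z • (1 : Matrix ι ι F)) →
    (∀ z : F, (x : Matrix ι ι F) ≠ z • (1 : Matrix ι ι F)) →
    ∃ W : Submodule F (ι → F), Mem Q W₀ m W ∧ W.map (Matrix.toLin' (x : Matrix ι ι F)) ≤ W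

end defs

/-! ### Level 1 (generic): the three cases of the theorem for an arbitrary form -/

/-- [TWO] generic, `r = 2`. -/
def PkgTwo : Prop :=
  ∀ (F : Type u) [Field F] [Fintype F] (ι : Type) [Fintype ι] [DecidableEq ι]
    (Q : (ι → F) → F), Cfsg.Geo.IsNondegenerateQuadraticForm Q → (2 : F) ≠ 0 →
    ∀ (W₀ : Submodule F (ι → F)) (m : ℕ), Odd m → 2 * m + 2 ≤ Fintype.card ι →
      Module.finrank F W₀ = m → Nd Q W₀ →
      (Fix Q W₀ m 2 ↔ ¬ ∃ x : GL ι F, x ∈ Cfsg.Geo.omegaGL Q ∧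
        (x : Matrix ι ι F) * (x : Matrix ι ι F) = -1)

/-- [POS] generic, `r` odd, `r ≠ p`: the numerical conditions force a fixed member. -/
def PkgPos : Prop :=
  ∀ (F : Type u) [Field F] [Fintype F] (ι : Type) [Fintype ι] [DecidableEq ι]
    (Q : (ι → F) → F), Cfsg.Geo.IsNondegenerateQuadraticForm Q → (2 : F) ≠ 0 →
    ∀ (r : ℕ), r.Prime → r ≠ 2 → ¬ r ∣ Fintype.card F →
    ∀ (W₀ : Submodule F (ι → F)) (m : ℕ), Odd m → m < Fintype.card ι →
      Module.finrank F W₀ = m → Nd Q W₀ →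
      (m % cc (Fintype.card F) r < Fintype.card ι % cc (Fintype.card F) r ∨
        (Fintype.card ι % cc (Fintype.card F) r = 0 ∧
          ¬ (Plus Q ⊤ ↔ (Odd (ordI (Fintype.card F) r) ∨
            Even (Fintype.card ι / ordI (Fintype.card F) r))))) →
      Fix Q W₀ m r

/-- [NEG] generic, `r` odd, `r ≠ p`, even dimension: a fixed member for every element forces the
numerical conditions (given the fixed-point-free element `hE0` in the case `c ∣ n`). -/
def PkgNeg : Prop :=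
  ∀ (F : Type u) [Field F] [Fintype F] (ι : Type) [Fintype ι] [DecidableEq ι]
    (Q : (ι → F) → F), Cfsg.Geo.IsNondegenerateQuadraticForm Q → (2 : F) ≠ 0 →
    ∀ (r : ℕ), r.Prime → r ≠ 2 → ¬ r ∣ Fintype.card F →
    ∀ (W₀ : Submodule F (ι → F)) (m : ℕ), Odd m → m < Fintype.card ι → Even (Fintype.card ι) →
      Module.finrank F W₀ = m → Nd Q W₀ →
      (Fintype.card ι % cc (Fintype.card F) r = 0 →
        (Plus Q ⊤ ↔ (Odd (ordI (Fintype.card F) r) ∨
          Even (Fintype.card ι / ordI (Fintype.card F) r))) →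
        ∃ x : GL ι F, x ∈ Cfsg.isometryGroup F Q ∧ orderOf x = r ∧
          Module.finrank F (fixSp (x : Matrix ι ι F)) = 0) →
      r ∣ Nat.card {W : Submodule F (ι → F) // Mem Q W₀ m W} →
      Fix Q W₀ m r →
      ((cc (Fintype.card F) r ≤ m ∧
          m % cc (Fintype.card F) r < Fintype.card ι % cc (Fintype.card F) r) ∨
        (Fintype.card ι % cc (Fintype.card F) r = 0 ∧
          ¬ (Plus Q ⊤ ↔ (Odd (ordI (Fintype.card F) r) ∨
            Even (Fintype.card ι / ordI (Fintype.card F) r)))))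

/-! ### Level 2 (generic) -/

/-- [SCAL] a scalar isometry is `± 1`. -/
def PkgScal : Prop :=
  ∀ (F : Type u) [Field F] (ι : Type) [Fintype ι] [DecidableEq ι] [Nonempty ι]
    (Q : (ι → F) → F), Cfsg.Geo.IsNondegenerateQuadraticForm Q →
    ∀ z : F, (∀ v, Q ((z • (1 : Matrix ι ι F)) *ᵥ v) = Q v) → z * z = 1

/-- [UNIV] a nondegenerate subspace of dimension at least 2 represents every nonzero scalar. -/
def PkgUniv : Prop :=
  ∀ (F : Type u) [Field F] [Fintype F] (ι : Type) [Fintype ι] [DecidableEq ι]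
    (Q : (ι → F) → F), Cfsg.Geo.IsNondegenerateQuadraticForm Q → (2 : F) ≠ 0 →
    ∀ U : Submodule F (ι → F), Nd Q U → 2 ≤ Module.finrank F U →
    ∀ a : F, a ≠ 0 → ∃ u ∈ U, Q u = a

/-- [EMB] a nondegenerate subspace embeds isometrically in every nondegenerate subspace of
larger dimension. -/
def PkgEmb : Prop :=
  ∀ (F : Type u) [Field F] [Fintype F] (ι : Type) [Fintype ι] [DecidableEq ι]
    (Q : (ι → F) → F), Cfsg.Geo.IsNondegenerateQuadraticForm Q → (2 : F) ≠ 0 →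
    ∀ U W : Submodule F (ι → F), Nd Q U → Nd Q W →
      Module.finrank F W + 1 ≤ Module.finrank F U →
      ∃ W' : Submodule F (ι → F), W' ≤ U ∧ Nd Q W' ∧ Cfsg.Geo.AreIsometricFor Q W' W

/-- [GEOMISO] completing `M` inside `C ⊥ M` to a copy of `W₀`. -/
def PkgGeomIso : Prop :=
  ∀ (F : Type u) [Field F] [Fintype F] (ι : Type) [Fintype ι] [DecidableEq ι]
    (Q : (ι → F) → F), Cfsg.Geo.IsNondegenerateQuadraticForm Q → (2 : F) ≠ 0 →
    ∀ C M W₀ : Submodule F (ι → F), Nd Q C → Nd Q M → Perp Q C M → Nd Q W₀ →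
    ∀ t : ℕ, 1 ≤ t → t + 1 ≤ Module.finrank F C →
      Module.finrank F W₀ = t + Module.finrank F M →
      ∃ W₁ : Submodule F (ι → F), W₁ ≤ C ∧ Nd Q W₁ ∧ Module.finrank F W₁ = t ∧
        Cfsg.Geo.AreIsometricFor Q (W₁ ⊔ M) W₀

/-- [INV1] an involution of the isometry group fixes a member. -/
def PkgInv1 : Prop :=
  ∀ (F : Type u) [Field F] [Fintype F] (ι : Type) [Fintype ι] [DecidableEq ι]
    (Q : (ι → F) → F), Cfsg.Geo.IsNondegenerateQuadraticForm Q → (2 : F) ≠ 0 →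
    ∀ x : GL ι F, x ∈ Cfsg.isometryGroup F Q → x ^ 2 = 1 →
    ∀ (W₀ : Submodule F (ι → F)) (m : ℕ), 1 ≤ m → 2 * m + 2 ≤ Fintype.card ι →
      Module.finrank F W₀ = m → Nd Q W₀ →
      ∃ W : Submodule F (ι → F), Mem Q W₀ m W ∧ Inv (x : Matrix ι ι F) W

/-- [INV2] an isometry with square `-1` has only even-dimensional invariant nondegenerate
subspaces. -/
def PkgInv2 : Prop :=
  ∀ (F : Type u) [Field F] (ι : Type) [Fintype ι] [DecidableEq ι]
    (Q : (ι → F) → F), Cfsg.Geo.IsNondegenerateQuadraticForm Q → (2 : F) ≠ 0 →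
    ∀ x : Matrix ι ι F, (∀ v, Q (x *ᵥ v) = Q v) → x * x = -1 →
    ∀ W : Submodule F (ι → F), Inv x W → Nd Q W → Even (Module.finrank F W)

/-- [EXEK] even dimension: elements of order `r` with fixed space of dimension `n - c j ≥ 2`. -/
def PkgExeK : Prop :=
  ∀ (F : Type u) [Field F] [Fintype F] (ι : Type) [Fintype ι] [DecidableEq ι]
    (Q : (ι → F) → F), Cfsg.Geo.IsNondegenerateQuadraticForm Q → (2 : F) ≠ 0 →
    Even (Fintype.card ι) →
    ∀ (r : ℕ), r.Prime → r ≠ 2 → ¬ r ∣ Fintype.card F →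
    ∀ (j : ℕ), 1 ≤ j → cc (Fintype.card F) r * j + 2 ≤ Fintype.card ι →
      ∃ x : GL ι F, x ∈ Cfsg.isometryGroup F Q ∧ orderOf x = r ∧
        Module.finrank F (fixSp (x : Matrix ι ι F)) + cc (Fintype.card F) r * j = Fintype.card ι

/-- [CNTPAR] even dimension: the number of members is prime to `r` when `m < c` and
`m < n % c`. -/
def PkgCntPar : Prop :=
  ∀ (F : Type u) [Field F] [Fintype F] (ι : Type) [Fintype ι] [DecidableEq ι]
    (Q : (ι → F) → F), Cfsg.Geo.IsNondegenerateQuadraticForm Q → (2 : F) ≠ 0 →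
    Even (Fintype.card ι) →
    ∀ (r : ℕ), r.Prime → r ≠ 2 → ¬ r ∣ Fintype.card F →
    ∀ (W₀ : Submodule F (ι → F)) (m : ℕ), 1 ≤ m → Module.finrank F W₀ = m → Nd Q W₀ →
      m < cc (Fintype.card F) r → m < Fintype.card ι % cc (Fintype.card F) r →
      ¬ r ∣ Nat.card {W : Submodule F (ι → F) // Mem Q W₀ m W}

/-! ### Plus-type specific packages (`Q = quadFormPlus d F` on `Fin d ⊕ Fin d → F`) -/

/-- [PLUSQ] the form `Σ xᵢ yᵢ` is nondegenerate of plus type. -/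
def PkgPlusQ : Prop :=
  ∀ (F : Type u) [Field F], (2 : F) ≠ 0 → ∀ d : ℕ,
    Cfsg.Geo.IsNondegenerateQuadraticForm (Cfsg.quadFormPlus d F) ∧
    Plus (Cfsg.quadFormPlus d F) ⊤

/-- [OM1] an element of `Ω⁺` with square `-1` when `d` is even or `q ≡ 1 (mod 8)`. -/
def PkgOm1 : Prop :=
  ∀ (F : Type u) [Field F] [Fintype F], Odd (Fintype.card F) → ∀ d : ℕ,
    (Even d ∨ Fintype.card F % 8 = 1) →
    ∃ x : GL (Fin d ⊕ Fin d) F, x ∈ Cfsg.Geo.omegaGL (Cfsg.quadFormPlus d F) ∧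
      (x : Matrix (Fin d ⊕ Fin d) (Fin d ⊕ Fin d) F) *
        (x : Matrix (Fin d ⊕ Fin d) (Fin d ⊕ Fin d) F) = -1

/-- [OM2A] no isometry with square `-1` when `q ≡ 3 (mod 4)` and `d` is odd. -/
def PkgOm2A : Prop :=
  ∀ (F : Type u) [Field F] [Fintype F], Fintype.card F % 4 = 3 → ∀ d : ℕ, Odd d →
    ∀ x : Matrix (Fin d ⊕ Fin d) (Fin d ⊕ Fin d) F,
      (∀ v, Cfsg.quadFormPlus d F (x *ᵥ v) = Cfsg.quadFormPlus d F v) → x * x ≠ -1

/-- [OM2B] no element of `Ω⁺` with square `-1` when `q ≡ 5 (mod 8)` and `d` is odd. -/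
def PkgOm2B : Prop :=
  ∀ (F : Type u) [Field F] [Fintype F], Fintype.card F % 8 = 5 → ∀ d : ℕ, Odd d →
    ∀ x : GL (Fin d ⊕ Fin d) F, x ∈ Cfsg.Geo.omegaGL (Cfsg.quadFormPlus d F) →
      (x : Matrix (Fin d ⊕ Fin d) (Fin d ⊕ Fin d) F) *
        (x : Matrix (Fin d ⊕ Fin d) (Fin d ⊕ Fin d) F) ≠ -1

/-- [EXE0] plus type, `c ∣ 2d` and the type of `V` matches: a fixed-point-free element of
order `r`. -/
def PkgExe0 : Prop :=
  ∀ (F : Type u) [Field F] [Fintype F], (2 : F) ≠ 0 →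
    ∀ (d r : ℕ), 1 ≤ d → r.Prime → r ≠ 2 → ¬ r ∣ Fintype.card F →
    (2 * d) % cc (Fintype.card F) r = 0 →
    (Odd (ordI (Fintype.card F) r) ∨ Even ((2 * d) / ordI (Fintype.card F) r)) →
    ∃ x : GL (Fin d ⊕ Fin d) F, x ∈ Cfsg.isometryGroup F (Cfsg.quadFormPlus d F) ∧
      orderOf x = r ∧
      Module.finrank F (fixSp (x : Matrix (Fin d ⊕ Fin d) (Fin d ⊕ Fin d) F)) = 0

/-- The unipotent derangement: an element of `Ω⁺` of order `p` with no invariant nondegenerate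
`m`-space. -/
def UniConcl (F : Type u) [Field F] [Fintype F] (p d m : ℕ) : Prop :=
  ∃ x : GL (Fin d ⊕ Fin d) F, x ∈ Cfsg.Geo.omegaGL (Cfsg.quadFormPlus d F) ∧ x ^ p = 1 ∧ x ≠ 1 ∧
    ∀ W : Submodule F (Fin d ⊕ Fin d → F), Module.finrank F W = m →
      Nd (Cfsg.quadFormPlus d F) W →
      ¬ Inv (x : Matrix (Fin d ⊕ Fin d) (Fin d ⊕ Fin d) F) W

/-- [UNIE] `d` even. -/
def PkgUniE : Prop :=
  ∀ (F : Type u) [Field F] [Fintype F] (p : ℕ) [Fact p.Prime] [CharP F p], p ≠ 2 →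
    ∀ d m : ℕ, 4 ≤ d → Odd m → m < d → Even d → UniConcl F p d m

/-- [UNI3] `d` odd, `m ≡ 3 (mod 4)`. -/
def PkgUni3 : Prop :=
  ∀ (F : Type u) [Field F] [Fintype F] (p : ℕ) [Fact p.Prime] [CharP F p], p ≠ 2 →
    ∀ d m : ℕ, 4 ≤ d → Odd m → m < d → Odd d → m % 4 = 3 → UniConcl F p d m

/-- [UNI1] `d` odd, `m ≡ 1 (mod 4)`. -/
def PkgUni1 : Prop :=
  ∀ (F : Type u) [Field F] [Fintype F] (p : ℕ) [Fact p.Prime] [CharP F p], p ≠ 2 →
    ∀ d m : ℕ, 4 ≤ d → Odd m → m < d → Odd d → m % 4 = 1 → UniConcl F p d m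

end Cfsg.Agent.Lib.Helper70.OPar
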