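-- Team project OPAR (S5989): the OHYP packages (project S5992), instantiated unconditionally,
-- under short names (helper70).
import Cfsg.Agent.Lib.Helper23.OHyp.Final
import Cfsg.Agent.Lib.Helper27.OHyp.BlkFinal
import Cfsg.Agent.Lib.Helper12.OHyp.Exist
import Cfsg.Agent.Lib.Helper70.OPar.Defs

set_option autoImplicit false

namespace Cfsg.Agent.Lib.Helper70.OPar

open Cfsg.Agent.Lib.Helper23.OHyp

universe u

theorem ohSplit : PkgSplit.{u} := Cfsg.Agent.Lib.Helper97.OHyp.pkgSplit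

theorem ohPerp : PkgPerp.{u} := Cfsg.Agent.Lib.Helper87.OHyp.pkgPerp

theorem ohSum : PkgSum.{u} := Cfsg.Agent.Lib.Helper1.OHyp.pkgSum

theorem ohBlk : PkgBlk.{u} := Cfsg.Agent.Lib.Helper27.OHyp.pkgBlk

theorem ohDiv : PkgDiv.{u} := pkgDiv_of_blk ohBlk

theorem ohSub : PkgSub.{u} := pkgSub_of_blk ohBlk

theorem ohGeom : PkgGeom.{u} := Cfsg.Agent.Lib.Helper37.OHyp.pkgGeom

theorem ohOddOmega : PkgOddOmega.{u} := Cfsg.Agent.Lib.Helper97.OHyp.pkgOddOmega

theorem ohExist : PkgExist.{u} :=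
  Cfsg.Agent.Lib.Helper12.OHyp.pkgExist_of_split_div ohSplit ohDiv

theorem ohInvol : PkgInvol.{u} := pkgInvol_all

end Cfsg.Agent.Lib.Helper70.OPar
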