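-- Team project OPAR (S5989): main assembly from the level-1 and plus-specific packages (helper70).
import Mathlib
import Cfsg.Prelude.Def_GeometricClasses
import Cfsg.Prelude.Def_Classical
import Cfsg.Agent.Lib.Helper70.OPar.Defs

set_option autoImplicit false
open scoped MatrixGroups
open Matrix

namespace Cfsg.Agent.Lib.Helper70.OPar

open Cfsg.Agent.Lib.Helper23.OHyp

universe u

theorem opar_isom_of_mem_omega {F : Type u} [Field F] {ι : Type} [Fintype ι] [DecidableEq ι]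
    {Q : (ι → F) → F} {x : GL ι F} (hx : x ∈ Cfsg.Geo.omegaGL Q) :
    ∀ v, Q ((x : Matrix ι ι F) *ᵥ v) = Q v := by
  obtain ⟨h, -, rfl⟩ := hx
  intro v
  exact h.2 v v

theorem opar_mod_pos {m c : ℕ} (hm : Odd m) (hc : Even c) : 0 < m % c := by
  have h2 : 2 ∣ c := hc.two_dvd
  have h1 : m % c % 2 = m % 2 := Nat.mod_mod_of_dvd m h2
  have h3 : m % 2 = 1 := Nat.odd_iff.mp hm
  omega

theorem main (hTwo : PkgTwo.{u}) (hPos : PkgPos.{u}) (hNeg : PkgNeg.{u}) (hPlusQ : PkgPlusQ.{u})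
    (hOm1 : PkgOm1.{u}) (hOm2A : PkgOm2A.{u}) (hOm2B : PkgOm2B.{u}) (hExe0 : PkgExe0.{u})
    (hUniE : PkgUniE.{u}) (hUni3 : PkgUni3.{u}) (hUni1 : PkgUni1.{u})
    {F : Type u} [Field F] [Fintype F] {p : ℕ} [Fact p.Prime] [CharP F p] {q : ℕ}
    (hq : Fintype.card F = q)
    (hodd : Odd q) (d m : ℕ) (hd : 4 ≤ d) (hm : Odd m) (hmd : m < d)
    (W₀ : Submodule F (Fin d ⊕ Fin d → F)) (hW₀ : Module.finrank F ↥W₀ = m ∧ Cfsg.Geo.IsNondegenerateOn (QuadraticMap.polar (Cfsg.quadFormPlus d F)) W₀)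
    (r : ℕ) [Fact r.Prime]
    (hrΩ : r ∣ Nat.card {W : Submodule F (Fin d ⊕ Fin d → F) // Module.finrank F ↥W = m ∧ Cfsg.Geo.IsNondegenerateOn (QuadraticMap.polar (Cfsg.quadFormPlus d F)) W ∧ Cfsg.Geo.AreIsometricFor (Cfsg.quadFormPlus d F) W W₀})
    (i c : ℕ) (hi : i = orderOf (q : ZMod r)) (hc : c = if Even i then i else 2 * i) :
    (∀ x : GL (Fin d ⊕ Fin d) F, x ∈ Cfsg.Geo.omegaGL (Cfsg.quadFormPlus d F) →
      (∃ z : F, ((x ^ r : GL (Fin d ⊕ Fin d) F) : Matrix (Fin d ⊕ Fin d) (Fin d ⊕ Fin d) F) = z • (1 : Matrix (Fin d ⊕ Fin d) (Fin d ⊕ Fin d) F)) →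
      (∀ z : F, (x : Matrix (Fin d ⊕ Fin d) (Fin d ⊕ Fin d) F) ≠ z • (1 : Matrix (Fin d ⊕ Fin d) (Fin d ⊕ Fin d) F)) →
      ∃ W : Submodule F (Fin d ⊕ Fin d → F), (Module.finrank F ↥W = m ∧ Cfsg.Geo.IsNondegenerateOn (QuadraticMap.polar (Cfsg.quadFormPlus d F)) W ∧ Cfsg.Geo.AreIsometricFor (Cfsg.quadFormPlus d F) W W₀) ∧ W.map (Matrix.toLin' (x : Matrix (Fin d ⊕ Fin d) (Fin d ⊕ Fin d) F)) ≤ W) ↔
    ((r = 2 ∧ Odd d ∧ q % 8 ≠ 1) ∨
     (r ≠ p ∧ 2 < r ∧ Odd i ∧ c ≤ m ∧ 0 < m % c ∧ m % c < (2 * d) % c) ∨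
     (r ≠ p ∧ 2 < r ∧ Even i ∧ (((2 * d) % c = 0 ∧ Odd ((2 * d) / i)) ∨ (i ≤ m ∧ 0 < m % c ∧ m % c < (2 * d) % c)))) := by
  subst hq
  have hpprime : p.Prime := Fact.out
  have hrprime : r.Prime := Fact.out
  obtain ⟨a, -, ha⟩ := FiniteField.card F p
  have hp2 : p ≠ 2 := by
    rintro rfl
    rw [ha] at hodd
    have : Even (2 ^ (a : ℕ)) := (Nat.even_pow.mpr ⟨even_two, a.pos.ne'⟩)
    exact (Nat.not_odd_iff_even.mpr this) hodd
  have h2 : (2 : F) ≠ 0 := by
    intro h
    have h' : ((2 : ℕ) : F) = 0 := by exact_mod_cast h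
    rw [CharP.cast_eq_zero_iff F p] at h'
    exact hp2 ((Nat.prime_dvd_prime_iff_eq hpprime Nat.prime_two).mp h')
  obtain ⟨hQnd, hQplus⟩ := hPlusQ F h2 d
  have hcard : Fintype.card (Fin d ⊕ Fin d) = 2 * d := by
    simp [two_mul]
  have hi' : ordI (Fintype.card F) r = i := hi.symm
  have hc' : cc (Fintype.card F) r = c := by
    rw [hc]; unfold cc; rw [hi']
  have hceven : Even c := by
    rw [hc]
    split_ifs with h
    · exact h
    · exact even_two_mul i
  have hml : 0 < m % c := opar_mod_pos hm hceven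
  have hW₀m := hW₀.1
  have hW₀nd : Nd (Cfsg.quadFormPlus d F) W₀ := hW₀.2
  change Fix (Cfsg.quadFormPlus d F) W₀ m r ↔ _
  by_cases hr2 : r = 2
  · subst hr2
    rw [hTwo F (Fin d ⊕ Fin d) (Cfsg.quadFormPlus d F) hQnd h2 W₀ m hm (by rw [hcard]; omega)
      hW₀m hW₀nd]
    constructor
    · intro hno
      left
      refine ⟨rfl, ?_, ?_⟩
      · by_contra hd'
        exact hno (hOm1 F hodd d (Or.inl (Nat.not_odd_iff_even.mp hd')))
      · intro h8
        exact hno (hOm1 F hodd d (Or.inr h8))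
    · rintro (⟨-, hdodd, h8⟩ | ⟨-, h2r, -⟩ | ⟨-, h2r, -⟩)
      · rintro ⟨x, hxΩ, hxx⟩
        have hcases : Fintype.card F % 4 = 3 ∨ Fintype.card F % 8 = 5 := by
          obtain ⟨k, hk⟩ := hodd
          omega
        rcases hcases with h4 | h5
        · exact hOm2A F h4 d hdodd _ (opar_isom_of_mem_omega hxΩ) hxx
        · exact hOm2B F h5 d hdodd x hxΩ hxx
      · omega
      · omega
  · have hr2' : 2 < r := lt_of_le_of_ne hrprime.two_le (Ne.symm hr2)
    by_cases hrp : r = p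
    · subst hrp
      constructor
      · intro hFix
        exfalso
        have hU : UniConcl F r d m := by
          rcases Nat.even_or_odd d with hde | hdo
          · exact hUniE F r hp2 d m hd hm hmd hde
          · have hm4 : m % 4 = 1 ∨ m % 4 = 3 := by
              obtain ⟨k, hk⟩ := hm
              omega
            rcases hm4 with h1 | h3
            · exact hUni1 F r hp2 d m hd hm hmd hdo h1
            · exact hUni3 F r hp2 d m hd hm hmd hdo h3
        obtain ⟨x, hxΩ, hxp, hx1, hno⟩ := hU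
        have hscal : ∃ z : F, ((x ^ r : GL (Fin d ⊕ Fin d) F) : Matrix (Fin d ⊕ Fin d) (Fin d ⊕ Fin d) F) = z • (1 : Matrix (Fin d ⊕ Fin d) (Fin d ⊕ Fin d) F) := by
          refine ⟨1, ?_⟩
          rw [hxp, one_smul]
          rfl
        have hns : ∀ z : F, (x : Matrix (Fin d ⊕ Fin d) (Fin d ⊕ Fin d) F) ≠ z • (1 : Matrix (Fin d ⊕ Fin d) (Fin d ⊕ Fin d) F) := by
          intro z hz
          have h1 : ((x ^ r : GL (Fin d ⊕ Fin d) F) : Matrix (Fin d ⊕ Fin d) (Fin d ⊕ Fin d) F) = (z ^ r) • (1 : Matrix (Fin d ⊕ Fin d) (Fin d ⊕ Fin d) F) := by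
            rw [Units.val_pow_eq_pow_val, hz, smul_pow, one_pow]
          rw [hxp] at h1
          have h2' := congrFun (congrFun h1 (Sum.inl ⟨0, by omega⟩)) (Sum.inl ⟨0, by omega⟩)
          simp at h2'
          have h3 : (z - 1) ^ r = 0 := by
            rw [sub_pow_char, one_pow, ← h2', sub_self]
          have h4 : z = 1 := by
            have := pow_eq_zero_iff (hrprime.ne_zero) |>.mp h3
            exact sub_eq_zero.mp this
          apply hx1
          apply Units.ext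
          rw [hz, h4, one_smul]
          rfl
        obtain ⟨W, hW, hWinv⟩ := hFix x hxΩ hscal hns
        exact hno W hW.1 hW.2.1 hWinv
      · rintro (⟨h, -⟩ | ⟨h, -⟩ | ⟨h, -⟩)
        · exact absurd h hr2
        · exact absurd rfl h
        · exact absurd rfl h
    · have hrq : ¬ r ∣ Fintype.card F := by
        rw [ha]
        intro h
        have := hrprime.dvd_of_dvd_pow h
        exact hrp ((Nat.prime_dvd_prime_iff_eq hrprime hpprime).mp this)
      have hmn : m < Fintype.card (Fin d ⊕ Fin d) := by rw [hcard]; omega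
      have hneven : Even (Fintype.card (Fin d ⊕ Fin d)) := by rw [hcard]; exact even_two_mul d
      constructor
      · intro hFix
        have hE0 : Fintype.card (Fin d ⊕ Fin d) % cc (Fintype.card F) r = 0 →
            (Plus (Cfsg.quadFormPlus d F) ⊤ ↔ (Odd (ordI (Fintype.card F) r) ∨
              Even (Fintype.card (Fin d ⊕ Fin d) / ordI (Fintype.card F) r))) →
            ∃ x : GL (Fin d ⊕ Fin d) F, x ∈ Cfsg.isometryGroup F (Cfsg.quadFormPlus d F) ∧
              orderOf x = r ∧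
              Module.finrank F (fixSp (x : Matrix (Fin d ⊕ Fin d) (Fin d ⊕ Fin d) F)) = 0 := by
          intro hk hty
          have h1 := hty.mp hQplus
          rw [hcard] at hk h1
          exact hExe0 F h2 d r (by omega) hrprime hr2 hrq hk h1
        have hmain := hNeg F (Fin d ⊕ Fin d) (Cfsg.quadFormPlus d F) hQnd h2 r hrprime hr2 hrq
          W₀ m hm hmn hneven hW₀m hW₀nd hE0 hrΩ hFix
        rw [hc', hi', hcard] at hmain
        rcases hmain with ⟨h1, h2'⟩ | ⟨h1, h2'⟩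
        · rcases Nat.even_or_odd i with hie | hio
          · right; right
            refine ⟨hrp, hr2', hie, Or.inr ⟨?_, hml, h2'⟩⟩
            have : c = i := by rw [hc, if_pos hie]
            omega
          · right; left
            exact ⟨hrp, hr2', hio, h1, hml, h2'⟩
        · right; right
          have h3 : ¬ (Odd i ∨ Even (2 * d / i)) := fun h => h2' ⟨fun _ => h, fun _ => hQplus⟩
          exact ⟨hrp, hr2', Nat.not_odd_iff_even.mp (fun h => h3 (Or.inl h)),
            Or.inl ⟨h1, Nat.not_even_iff_odd.mp (fun h => h3 (Or.inr h))⟩⟩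
      · intro hR
        apply hPos F (Fin d ⊕ Fin d) (Cfsg.quadFormPlus d F) hQnd h2 r hrprime hr2 hrq
          W₀ m hm hmn hW₀m hW₀nd
        rw [hc', hi', hcard]
        rcases hR with ⟨h, -⟩ | ⟨-, -, -, -, -, h⟩ | ⟨-, -, hie, ⟨h1, h2'⟩ | ⟨-, -, h⟩⟩
        · exact absurd h hr2
        · exact Or.inl h
        · right
          refine ⟨h1, ?_⟩
          intro hiff
          rcases hiff.mp hQplus with h3 | h3
          · exact (Nat.not_odd_iff_even.mpr hie) h3
          · exact (Nat.not_even_iff_odd.mpr h2') h3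
        · exact Or.inl h

end Cfsg.Agent.Lib.Helper70.OPar
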