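-- Team project OPAR (S5989): backup glue for helper57's sub-project [PDER+] (helper70):
-- the nine packages give `PDerPlus`.
import Cfsg.Agent.Lib.Helper57.OPar.Defs
import Cfsg.Agent.Lib.Helper23.OHyp.Defs

set_option autoImplicit false
open scoped MatrixGroups
open Matrix

namespace Cfsg.Agent.Lib.Helper70.OPar

open Cfsg.Agent.Lib.Helper57.OPar

universe u

section glue

variable {F : Type u} [Field F]

/-- The polar form of a nondegenerate quadratic form as a bilinear map. -/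
noncomputable def pderB {ι : Type} [Fintype ι] [DecidableEq ι] (Q : (ι → F) → F)
    (hQ : Cfsg.Geo.IsNondegenerateQuadraticForm Q) : (ι → F) →ₗ[F] (ι → F) →ₗ[F] F :=
  LinearMap.mk₂ F (fun u v => QuadraticMap.polar Q u v)
    (fun x y v => hQ.polar_bilinear.add_left x y v)
    (fun c x v => by simpa [smul_eq_mul] using hQ.polar_bilinear.smul_left c x v)
    (fun v x y => hQ.polar_bilinear.add_right v x y)
    (fun c v x => by simpa [smul_eq_mul] using hQ.polar_bilinear.smul_right c v x)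

theorem pderB_apply {ι : Type} [Fintype ι] [DecidableEq ι] (Q : (ι → F) → F)
    (hQ : Cfsg.Geo.IsNondegenerateQuadraticForm Q) (u v : ι → F) :
    pderB Q hQ u v = QuadraticMap.polar Q u v := rfl

/-- Common part: the data needed to apply [UA] / [UB] to `xM M`. -/
theorem pder_common (hQ : PkgQndPlus.{u}) (hIso : PkgIso.{u}) (hOrd : PkgOrd.{u})
    (hOO : Cfsg.Agent.Lib.Helper23.OHyp.PkgOddOmega.{u})
    [Fintype F] {p : ℕ} [Fact p.Prime] [CharP F p] (hp : p ≠ 2) (h2 : (2 : F) ≠ 0)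
    (d : ℕ) (M : Matrix (Fin d) (Fin d) F) (hM3 : M * M * M = 0) (hM0 : M ≠ 0) :
    ∃ x : GL (Fin d ⊕ Fin d) F, x ∈ Cfsg.Geo.omegaGL (Cfsg.quadFormPlus d F) ∧ orderOf x = p ∧
      (x : Matrix (Fin d ⊕ Fin d) (Fin d ⊕ Fin d) F) = xM M := by
  obtain ⟨x, hx, hord⟩ := hOrd F p hp d M hM3 hM0
  refine ⟨x, ?_, hord, hx⟩
  have hxiso : x ∈ Cfsg.isometryGroup F (Cfsg.quadFormPlus d F) := by
    intro u _
    change Cfsg.quadFormPlus d F ((x : Matrix (Fin d ⊕ Fin d) (Fin d ⊕ Fin d) F) *ᵥ u) = _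
    rw [hx]
    exact hIso F d M hM3 u
  apply hOO F (Fin d ⊕ Fin d) (Cfsg.quadFormPlus d F) (hQ F h2 d) h2 x hxiso
  rw [hord]
  exact (Fact.out : p.Prime).odd_of_ne_two hp

theorem pder_hyps (hQ : PkgQndPlus.{u}) (hIso : PkgIso.{u}) (h2 : (2 : F) ≠ 0)
    (d : ℕ) (M : Matrix (Fin d) (Fin d) F) (hM3 : M * M * M = 0) :
    let B := pderB (Cfsg.quadFormPlus d F) (hQ F h2 d)
    let N : (Fin d ⊕ Fin d → F) →ₗ[F] (Fin d ⊕ Fin d → F) := Matrix.toLin' (xM M - 1)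
    (∀ u v, B u v = B v u) ∧ (∀ u v, B (u + N u) (v + N v) = B u v) ∧
    (∀ (x : GL (Fin d ⊕ Fin d) F), (x : Matrix (Fin d ⊕ Fin d) (Fin d ⊕ Fin d) F) = xM M →
      ∀ W : Submodule F (Fin d ⊕ Fin d → F),
      Cfsg.Geo.IsNondegenerateOn (QuadraticMap.polar (Cfsg.quadFormPlus d F)) W →
      W.map (Matrix.toLin' (x : Matrix (Fin d ⊕ Fin d) (Fin d ⊕ Fin d) F)) ≤ W →
      (∀ w ∈ W, N w ∈ W) ∧ (∀ w ∈ W, w ≠ 0 → ∃ v ∈ W, B w v ≠ 0)) := by
  intro B N
  have hN : ∀ u, u + N u = xM M *ᵥ u := by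
    intro u
    change u + Matrix.toLin' (xM M - 1) u = _
    rw [Matrix.toLin'_apply, Matrix.sub_mulVec, Matrix.one_mulVec]
    abel
  refine ⟨?_, ?_, ?_⟩
  · intro u v
    change QuadraticMap.polar _ u v = QuadraticMap.polar _ v u
    exact QuadraticMap.polar_comm _ u v
  · intro u v
    rw [hN, hN]
    change QuadraticMap.polar _ (xM M *ᵥ u) (xM M *ᵥ v) = QuadraticMap.polar _ u v
    unfold QuadraticMap.polar
    rw [← Matrix.mulVec_add, hIso F d M hM3, hIso F d M hM3, hIso F d M hM3]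
  · intro x hx W hnd hinv
    refine ⟨?_, ?_⟩
    · intro w hw
      have h1 : xM M *ᵥ w ∈ W := by
        apply hinv
        refine ⟨w, hw, ?_⟩
        rw [Matrix.toLin'_apply, hx]
      have h3 : N w = xM M *ᵥ w - w := by
        rw [← hN w]; abel
      rw [h3]
      exact W.sub_mem h1 hw
    · intro w hw hw0
      obtain ⟨-, v, hv, hne⟩ := hnd w hw hw0
      exact ⟨v, hv, hne⟩

theorem pderPlus_of_pkgs (hUA : PkgUA.{u}) (hUB : PkgUB.{u})
    (hQ : PkgQndPlus.{u}) (hIso : PkgIso.{u}) (hOrd : PkgOrd.{u}) (hNil : PkgNil.{u})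
    (hKA : PkgKA.{u}) (hKB : PkgKB.{u})
    (hOO : Cfsg.Agent.Lib.Helper23.OHyp.PkgOddOmega.{u}) : PDerPlus.{u} := by
  intro F _ _ p _ _ hp d m hd hm
  have hpprime : p.Prime := Fact.out
  have h2 : (2 : F) ≠ 0 := by
    intro h
    have h' : ((2 : ℕ) : F) = 0 := by exact_mod_cast h
    rw [CharP.cast_eq_zero_iff F p] at h'
    exact hp ((Nat.prime_dvd_prime_iff_eq hpprime Nat.prime_two).mp h')
  -- the case `N ^ 2 = 0`
  have caseA : ∀ h : ℕ, 1 ≤ h → (d = 2 * h ∨ d = 2 * h + 1) →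
      (∀ a w₁ : ℕ, m = 4 * a + w₁ → w₁ ≤ 2 * (d - 2 * h) → False) →
      ∃ x : GL (Fin d ⊕ Fin d) F, x ∈ Cfsg.Geo.omegaGL (Cfsg.quadFormPlus d F) ∧ orderOf x = p ∧
        ∀ W : Submodule F (Fin d ⊕ Fin d → F), Module.finrank F ↥W = m →
          Cfsg.Geo.IsNondegenerateOn (QuadraticMap.polar (Cfsg.quadFormPlus d F)) W →
          W.map (Matrix.toLin' (x : Matrix (Fin d ⊕ Fin d) (Fin d ⊕ Fin d) F)) ≤ W → False := by
    intro h hh hdh hnum
    obtain ⟨hM2, hM0, φ, hφ⟩ := hKA F d h hh hdh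
    have hM3 : sh F d h h * sh F d h h * sh F d h h = 0 := by rw [hM2, zero_mul]
    obtain ⟨x, hxΩ, hord, hx⟩ := pder_common hQ hIso hOrd hOO hp h2 d _ hM3 hM0
    refine ⟨x, hxΩ, hord, ?_⟩
    intro W hWm hnd hinv
    obtain ⟨hsymm, hisoB, hW⟩ := pder_hyps hQ hIso h2 d (sh F d h h) hM3
    obtain ⟨hWN, hWnd⟩ := hW x hx W hnd hinv
    have hNN : ∀ v, Matrix.toLin' (xM (sh F d h h) - 1) (Matrix.toLin' (xM (sh F d h h) - 1) v)
        = 0 := by
      intro v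
      rw [Matrix.toLin'_apply, Matrix.toLin'_apply, Matrix.mulVec_mulVec,
        (hNil F d (sh F d h h)).2 hM2, Matrix.zero_mulVec]
    obtain ⟨a, w₁, hdim, hw₁⟩ := hUA F (Fin d ⊕ Fin d → F) h2
      (pderB (Cfsg.quadFormPlus d F) (hQ F h2 d)) (Matrix.toLin' (xM (sh F d h h) - 1))
      hsymm hisoB hNN (2 * (d - 2 * h)) φ
      (fun v hv hφv => by
        obtain ⟨u, hu⟩ := hφ v (by rw [← Matrix.toLin'_apply]; exact hv) hφv
        exact ⟨u, by rw [Matrix.toLin'_apply]; exact hu⟩)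
      W hWN hWnd
    exact hnum a w₁ (by rw [← hWm]; exact hdim) hw₁
  -- the case `N ^ 3 = 0`
  have caseB : ∀ h : ℕ, 1 ≤ h → d = 2 * h + 1 →
      (∀ a a₃ : ℕ, m = 4 * a + 3 * a₃ → a₃ ≤ 2 → False) →
      ∃ x : GL (Fin d ⊕ Fin d) F, x ∈ Cfsg.Geo.omegaGL (Cfsg.quadFormPlus d F) ∧ orderOf x = p ∧
        ∀ W : Submodule F (Fin d ⊕ Fin d → F), Module.finrank F ↥W = m →
          Cfsg.Geo.IsNondegenerateOn (QuadraticMap.polar (Cfsg.quadFormPlus d F)) W →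
          W.map (Matrix.toLin' (x : Matrix (Fin d ⊕ Fin d) (Fin d ⊕ Fin d) F)) ≤ W → False := by
    intro h hh hdh hnum
    obtain ⟨hM3, hM0, hker, hrk⟩ := hKB F d h hh hdh
    obtain ⟨x, hxΩ, hord, hx⟩ := pder_common hQ hIso hOrd hOO hp h2 d _ hM3 hM0
    refine ⟨x, hxΩ, hord, ?_⟩
    intro W hWm hnd hinv
    obtain ⟨hsymm, hisoB, hW⟩ := pder_hyps hQ hIso h2 d (sh F d h d) hM3
    obtain ⟨hWN, hWnd⟩ := hW x hx W hnd hinv
    have hNNN : ∀ v, Matrix.toLin' (xM (sh F d h d) - 1) (Matrix.toLin' (xM (sh F d h d) - 1)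
        (Matrix.toLin' (xM (sh F d h d) - 1) v)) = 0 := by
      intro v
      rw [Matrix.toLin'_apply, Matrix.toLin'_apply, Matrix.toLin'_apply, Matrix.mulVec_mulVec,
        Matrix.mulVec_mulVec, (hNil F d (sh F d h d)).1 hM3,
        Matrix.zero_mulVec]
    have hrk' : Module.finrank F (LinearMap.range (Matrix.toLin' (xM (sh F d h d) - 1) ∘ₗ
        Matrix.toLin' (xM (sh F d h d) - 1))) ≤ 2 := by
      rw [← Matrix.toLin'_mul]
      exact hrk
    obtain ⟨a, a₃, hdim, ha₃⟩ := hUB F (Fin d ⊕ Fin d → F) h2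
      (pderB (Cfsg.quadFormPlus d F) (hQ F h2 d)) (Matrix.toLin' (xM (sh F d h d) - 1))
      hsymm hisoB hNNN
      (fun u v hu hv => hker u v (by rw [← Matrix.toLin'_apply]; exact hu)
        (by rw [← Matrix.toLin'_apply]; exact hv))
      hrk' W hWN hWnd
    exact hnum a a₃ (by rw [← hWm]; exact hdim) ha₃
  obtain ⟨k, hk⟩ := hm
  rcases Nat.even_or_odd d with hde | hdo
  · obtain ⟨h, hh⟩ := hde
    exact caseA h (by omega) (Or.inl (by omega)) (fun a w₁ h1 h2' => by omega)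
  · obtain ⟨h, hh⟩ := hdo
    by_cases hm4 : m % 4 = 3
    · exact caseA h (by omega) (Or.inr hh) (fun a w₁ h1 h2' => by omega)
    · exact caseB h (by omega) hh (fun a a₃ h1 h2' => by omega)

end glue

end Cfsg.Agent.Lib.Helper70.OPar
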