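-- Team project OPAR (S5989): helper57's sub-project goal `PDerPlus`, instantiated from the
-- nine landed packages through the backup glue (helper70).
import Cfsg.Agent.Lib.Helper70.OPar.PDerGlue
import Cfsg.Agent.Lib.Helper70.OPar.OHypInst
import Cfsg.Agent.Lib.Helper80.OPar.Alt
import Cfsg.Agent.Lib.Helper87.OPar.UA
import Cfsg.Agent.Lib.Helper87.OPar.UB
import Cfsg.Agent.Lib.Helper80.OPar.QndPlus
import Cfsg.Agent.Lib.Helper19.OPar.Iso
import Cfsg.Agent.Lib.Helper19.OPar.Ord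
import Cfsg.Agent.Lib.Helper19.OPar.Nil
import Cfsg.Agent.Lib.Helper27.OPar.KA
import Cfsg.Agent.Lib.Helper8.OPar.KB

set_option autoImplicit false

namespace Cfsg.Agent.Lib.Helper70.OPar

universe u

theorem opPDerPlus : Cfsg.Agent.Lib.Helper57.OPar.PDerPlus.{u} :=
  pderPlus_of_pkgs
    (Cfsg.Agent.Lib.Helper87.OPar.pkgUA Cfsg.Agent.Lib.Helper80.OPar.pkgAlt)
    (Cfsg.Agent.Lib.Helper87.OPar.pkgUB Cfsg.Agent.Lib.Helper80.OPar.pkgAlt)
    Cfsg.Agent.Lib.Helper80.OPar.pkgQndPlus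
    Cfsg.Agent.Lib.Helper19.OPar.pkgIso
    Cfsg.Agent.Lib.Helper19.OPar.pkgOrd
    Cfsg.Agent.Lib.Helper19.OPar.pkgNil
    Cfsg.Agent.Lib.Helper27.OPar.pkgKA
    Cfsg.Agent.Lib.Helper8.OPar.pkgKB
    ohOddOmega

end Cfsg.Agent.Lib.Helper70.OPar
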