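-- Team project OPAR (S5989): everything instantiated except [EXEK] and the three unipotent
-- derangement packages (helper70).
import Cfsg.Agent.Lib.Helper70.OPar.Asm
import Cfsg.Agent.Lib.Helper70.OPar.OHypInst
import Cfsg.Agent.Lib.Helper45.OPar.Scal
import Cfsg.Agent.Lib.Helper34.OPar.Inv2
import Cfsg.Agent.Lib.Helper15.OPar.Inv1
import Cfsg.Agent.Lib.Helper15.OPar.Two
import Cfsg.Agent.Lib.Helper25.OPar.Emb
import Cfsg.Agent.Lib.Helper54.OPar.GeomIso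
import Cfsg.Agent.Lib.Helper84.OPar.Pos
import Cfsg.Agent.Lib.Helper96.OPar.Neg
import Cfsg.Agent.Lib.Helper61.OPar.CntPar
import Cfsg.Agent.Lib.Helper87.OPar.PlusQ
import Cfsg.Agent.Lib.Helper20.OPar.Om1
import Cfsg.Agent.Lib.Helper87.OPar.Om2A
import Cfsg.Agent.Lib.Helper85.OPar.Om2B
import Cfsg.Agent.Lib.Helper80.OPar.Exe0

set_option autoImplicit false
open scoped MatrixGroups
open Matrix

namespace Cfsg.Agent.Lib.Helper70.OPar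

open Cfsg.Agent.Lib.Helper23.OHyp

universe u

theorem opScal : PkgScal.{u} := Cfsg.Agent.Lib.Helper45.OPar.pkgScal

theorem opUniv : PkgUniv.{u} := Cfsg.Agent.Lib.Helper45.OPar.pkgUniv

theorem opEmb : PkgEmb.{u} := Cfsg.Agent.Lib.Helper25.OPar.pkgEmb_of opUniv ohPerp

theorem opGeomIso : PkgGeomIso.{u} := Cfsg.Agent.Lib.Helper54.OPar.pkgGeomIso_of opEmb ohPerp ohSum

theorem opInv1 : PkgInv1.{u} := Cfsg.Agent.Lib.Helper15.OPar.pkgInv1_of opGeomIso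

theorem opInv2 : PkgInv2.{u} := Cfsg.Agent.Lib.Helper34.OPar.pkgInv2

theorem opTwo : PkgTwo.{u} := Cfsg.Agent.Lib.Helper15.OPar.pkgTwo_of opScal opInv1 opInv2

theorem opPos : PkgPos.{u} :=
  Cfsg.Agent.Lib.Helper84.OPar.pkgPos_of opScal ohSplit ohDiv ohSub ohSum opGeomIso

theorem opCntPar_of (hE : PkgExeK.{u}) : PkgCntPar.{u} :=
  Cfsg.Agent.Lib.Helper61.OPar.pkgCntPar_of ohSplit ohDiv hE opEmb

theorem opNeg_of (hE : PkgExeK.{u}) : PkgNeg.{u} :=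
  Cfsg.Agent.Lib.Helper96.OPar.pkgNeg_of opScal ohSplit ohDiv ohOddOmega hE (opCntPar_of hE)

theorem opPlusQ : PkgPlusQ.{u} := Cfsg.Agent.Lib.Helper87.OPar.pkgPlusQ

theorem opOm1 : PkgOm1.{u} := Cfsg.Agent.Lib.Helper20.OPar.pkgOm1

theorem opOm2A : PkgOm2A.{u} := Cfsg.Agent.Lib.Helper87.OPar.pkgOm2A

theorem opOm2B : PkgOm2B.{u} := Cfsg.Agent.Lib.Helper85.OPar.pkgOm2B

theorem opExe0 : PkgExe0.{u} := Cfsg.Agent.Lib.Helper80.OPar.pkgExe0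

theorem main_of_rest (hExeK : PkgExeK.{u}) (hUniE : PkgUniE.{u}) (hUni3 : PkgUni3.{u})
    (hUni1 : PkgUni1.{u})
    {F : Type u} [Field F] [Fintype F] {p : ℕ} [Fact p.Prime] [CharP F p] {q : ℕ}
    (hq : Fintype.card F = q)
    (hodd : Odd q) (d m : ℕ) (hd : 4 ≤ d) (hm : Odd m) (hmd : m < d)
    (W₀ : Submodule F (Fin d ⊕ Fin d → F)) (hW₀ : Module.finrank F ↥W₀ = m ∧ Cfsg.Geo.IsNondegenerateOn (QuadraticMap.polar (Cfsg.quadFormPlus d F)) W₀)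
    (r : ℕ) [Fact r.Prime]
    (hrΩ : r ∣ Nat.card {W : Submodule F (Fin d ⊕ Fin d → F) // Module.finrank F ↥W = m ∧ Cfsg.Geo.IsNondegenerateOn (QuadraticMap.polar (Cfsg.quadFormPlus d F)) W ∧ Cfsg.Geo.AreIsometricFor (Cfsg.quadFormPlus d F) W W₀})
    (i c : ℕ) (hi : i = orderOf (q : ZMod r)) (hc : c = if Even i then i else 2 * i) :
    (∀ x : GL (Fin d ⊕ Fin d) F, x ∈ Cfsg.Geo.omegaGL (Cfsg.quadFormPlus d F) →
      (∃ z : F, ((x ^ r : GL (Fin d ⊕ Fin d) F) : Matrix (Fin d ⊕ Fin d) (Fin d ⊕ Fin d) F) = z • (1 : Matrix (Fin d ⊕ Fin d) (Fin d ⊕ Fin d) F)) →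
      (∀ z : F, (x : Matrix (Fin d ⊕ Fin d) (Fin d ⊕ Fin d) F) ≠ z • (1 : Matrix (Fin d ⊕ Fin d) (Fin d ⊕ Fin d) F)) →
      ∃ W : Submodule F (Fin d ⊕ Fin d → F), (Module.finrank F ↥W = m ∧ Cfsg.Geo.IsNondegenerateOn (QuadraticMap.polar (Cfsg.quadFormPlus d F)) W ∧ Cfsg.Geo.AreIsometricFor (Cfsg.quadFormPlus d F) W W₀) ∧ W.map (Matrix.toLin' (x : Matrix (Fin d ⊕ Fin d) (Fin d ⊕ Fin d) F)) ≤ W) ↔
    ((r = 2 ∧ Odd d ∧ q % 8 ≠ 1) ∨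
     (r ≠ p ∧ 2 < r ∧ Odd i ∧ c ≤ m ∧ 0 < m % c ∧ m % c < (2 * d) % c) ∨
     (r ≠ p ∧ 2 < r ∧ Even i ∧ (((2 * d) % c = 0 ∧ Odd ((2 * d) / i)) ∨ (i ≤ m ∧ 0 < m % c ∧ m % c < (2 * d) % c)))) :=
  main opTwo opPos (opNeg_of hExeK) opPlusQ opOm1 opOm2A opOm2B opExe0 hUniE hUni3 hUni1
    hq hodd d m hd hm hmd W₀ hW₀ r hrΩ i c hi hc

end Cfsg.Agent.Lib.Helper70.OPar
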