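-- Team project OPAR (S5989): the three unipotent packages from helper57's sub-project goal
-- `PDerPlus` (helper70).
import Cfsg.Agent.Lib.Helper70.OPar.Defs
import Cfsg.Agent.Lib.Helper57.OPar.Defs

set_option autoImplicit false
open scoped MatrixGroups
open Matrix

namespace Cfsg.Agent.Lib.Helper70.OPar

open Cfsg.Agent.Lib.Helper23.OHyp

universe u

theorem uniConcl_of_pder (h : Cfsg.Agent.Lib.Helper57.OPar.PDerPlus.{u})
    {F : Type u} [Field F] [Fintype F] (p : ℕ) [Fact p.Prime] [CharP F p] (hp : p ≠ 2)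
    (d m : ℕ) (hd : 3 ≤ d) (hm : Odd m) : UniConcl F p d m := by
  obtain ⟨x, hxΩ, hord, hno⟩ := h (F := F) (p := p) hp d m hd hm
  refine ⟨x, hxΩ, ?_, ?_, ?_⟩
  · rw [← hord]; exact pow_orderOf_eq_one x
  · intro h1
    rw [h1, orderOf_one] at hord
    exact (Fact.out : p.Prime).one_lt.ne hord
  · intro W hW hnd hinv
    exact hno W hW hnd hinv

theorem pkgUniE_of_pder (h : Cfsg.Agent.Lib.Helper57.OPar.PDerPlus.{u}) : PkgUniE.{u} :=
  fun _ _ _ p _ _ hp d m hd hm _ _ => uniConcl_of_pder h p hp d m (by omega) hm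

theorem pkgUni3_of_pder (h : Cfsg.Agent.Lib.Helper57.OPar.PDerPlus.{u}) : PkgUni3.{u} :=
  fun _ _ _ p _ _ hp d m hd hm _ _ _ => uniConcl_of_pder h p hp d m (by omega) hm

theorem pkgUni1_of_pder (h : Cfsg.Agent.Lib.Helper57.OPar.PDerPlus.{u}) : PkgUni1.{u} :=
  fun _ _ _ p _ _ hp d m hd hm _ _ _ => uniConcl_of_pder h p hp d m (by omega) hm

end Cfsg.Agent.Lib.Helper70.OPar
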